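import Mathlib
import Cfsg.Agent.Lib.Helper99.GUSP.Defs
import Cfsg.Agent.Lib.Helper40.SpImprim
import Cfsg.Agent.Lib.Helper13.SpPrim

/-!
# S5976 (team project GUSP), package [DERA] (helper80)

`r` odd, `r ≠ p`, the order `i` of `q` mod `r` odd and `≤ d`: a symplectic element of order `r`
with characteristic polynomial `(X - 1)^(2d-2i) π₀ π₀*` commutes or anticommutes with no `α`,
because `ker π₀(x)` has odd dimension `i`.
-/

set_option autoImplicit false

namespace Cfsg.Agent.Lib.Helper80.GUSP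

open Matrix Polynomial
open Cfsg.Agent.Lib.Helper99.GUSP

universe u

theorem coprime_of_ne80 {F : Type*} [Field F] {p q : F[X]} (hp : Irreducible p)
    (hq : Irreducible q) (hpm : p.Monic) (hqm : q.Monic) (hne : p ≠ q) : IsCoprime p q := by
  rw [hp.coprime_iff_not_dvd]
  intro hd
  exact hne (eq_of_monic_of_associated hpm hqm (hp.associated_of_dvd hq hd))

theorem aeval_comm80 {K V : Type*} [Field K] [AddCommGroup V] [Module K V]
    (f g : Module.End K V) (h : g * f = f * g) (p : K[X]) :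
    g * aeval f p = aeval f p * g := by
  induction p using Polynomial.induction_on' with
  | add p q hp hq => rw [map_add, mul_add, add_mul, hp, hq]
  | monomial n c =>
    rw [← C_mul_X_pow_eq_monomial, map_mul, map_pow, aeval_C, aeval_X]
    have h1 : g * f ^ n = f ^ n * g := by
      induction n with
      | zero => rw [pow_zero, mul_one, one_mul]
      | succ n ih => rw [pow_succ, ← mul_assoc, ih, mul_assoc, h, mul_assoc]
    rw [← mul_assoc, ← Algebra.commutes c g, mul_assoc, h1, mul_assoc]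

/-- [DERA] -/
theorem pkgDerA : PkgDerA.{u} := by
  intro hEven F _ _ p _ _ hodd d r hr hr2 hrp hiodd hid
  classical
  have : Fact r.Prime := ⟨hr⟩
  have hp : p.Prime := Fact.out
  obtain ⟨i, hi⟩ : ∃ i : ℕ, i = orderOf ((Fintype.card F : ℕ) : ZMod r) := ⟨_, rfl⟩
  rw [← hi] at hiodd hid
  have hi1 : 1 ≤ i := by
    rcases hiodd with ⟨k, hk⟩
    omega
  obtain ⟨S, dg, hS, hSne, hdg, hdd, -, hdgne⟩ :=
    Cfsg.Agent.Lib.Helper40.SpImprim.exists_data (F := F) (p := p) (hF := rfl) r hr2 hrp i hi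
  have hdgne' := hdgne hiodd
  obtain ⟨π₀e, hπ₀e⟩ := hSne
  obtain ⟨π₀, hπ₀⟩ : ∃ π₀ : S, π₀ = ⟨π₀e, hπ₀e⟩ := ⟨_, rfl⟩
  obtain ⟨π₁, hπ₁⟩ : ∃ π₁ : S, π₁ = dg π₀ := ⟨_, rfl⟩
  have hne01 : π₁ ≠ π₀ := by
    rw [hπ₁]
    exact hdgne' π₀
  have hne01' : π₁.1 ≠ π₀.1 := fun h => hne01 (Subtype.ext h)
  obtain ⟨a, ha⟩ : ∃ a : S → ℕ, a = fun π => (if π = π₀ then 1 else 0) + (if π = π₁ then 1 else 0) :=
    ⟨_, rfl⟩
  have hadg : ∀ π, a (dg π) = a π := by
    intro π
    rw [ha]
    have e1 : dg π = π₀ ↔ π = π₁ := by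
      constructor
      · intro h
        rw [hπ₁, ← h, hdd]
      · intro h
        rw [h, hπ₁, hdd]
    have e2 : dg π = π₁ ↔ π = π₀ := by
      constructor
      · intro h
        rw [hπ₁] at h
        have h' := congrArg dg h
        rw [hdd, hdd] at h'
        exact h'
      · intro h
        rw [h, hπ₁]
    simp only [e1, e2]
    rw [add_comm]
  have hasum : ∑ π, a π = 2 := by
    rw [ha]
    simp [Finset.sum_add_distrib]
  have ha0 : a π₀ ≠ 0 := by
    rw [ha]
    simp
  have ha1 : a π₁ ≠ 0 := by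
    rw [ha]
    simp
  obtain ⟨g, hgr, hgχ⟩ := Cfsg.Agent.Lib.Helper40.SpImprim.exists_sp_chi p hS hr hr2 dg hdg d a
    hadg (by rw [hasum]; omega)
  rw [hasum] at hgχ
  obtain ⟨M, hM⟩ : ∃ M : Matrix (SI d) (SI d) F, M = g.1 := ⟨_, rfl⟩
  rw [← hM] at hgr hgχ
  have hrF : (r : F) ≠ 0 := by
    intro h
    rw [CharP.cast_eq_zero_iff F p r] at h
    exact hrp ((Nat.prime_dvd_prime_iff_eq hp hr).1 h).symm
  obtain ⟨f, hf⟩ : ∃ f : Module.End F (SI d → F), f = Matrix.toLin' M := ⟨_, rfl⟩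
  have hfr : f ^ r = 1 := by
    rw [hf, Cfsg.Agent.Lib.Helper40.SpImprim.toLin_pow, hgr, Matrix.toLin'_one]
    rfl
  have hfχ : f.charpoly = (X - C 1) ^ (2 * d - i * 2) * ∏ π : S, π.1 ^ a π := by
    rw [hf, Matrix.charpoly_toLin', hgχ]
    rfl
  have hdvd : ∀ π : S, a π ≠ 0 → π.1 ∣ f.charpoly := by
    intro π hπ
    rw [hfχ]
    exact Dvd.dvd.mul_left ((dvd_pow_self π.1 hπ).trans
      (Finset.dvd_prod_of_mem (fun π : S => π.1 ^ a π) (Finset.mem_univ π))) _
  -- the three kernels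
  obtain ⟨W, hW⟩ : ∃ W : Submodule F (SI d → F), W = LinearMap.ker (aeval f π₀.1) := ⟨_, rfl⟩
  obtain ⟨W', hW'⟩ : ∃ W' : Submodule F (SI d → F), W' = LinearMap.ker (aeval f π₁.1) :=
    ⟨_, rfl⟩
  have hfix : Cfsg.Agent.Lib.Helper40.SpImprim.fixS f = LinearMap.ker (aeval f (X - C 1 : F[X])) := by
    unfold Cfsg.Agent.Lib.Helper40.SpImprim.fixS
    rw [map_sub, aeval_X, aeval_C, map_one]
  have hc01 : IsCoprime π₀.1 π₁.1 :=
    coprime_of_ne80 (hS.irred _ π₀.2) (hS.irred _ π₁.2) (hS.monic _ π₀.2) (hS.monic _ π₁.2)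
      (fun h => hne01' h.symm)
  have hcX : ∀ π : S, IsCoprime π.1 (X - C 1) := by
    intro π
    apply coprime_of_ne80 (hS.irred _ π.2) (irreducible_X_sub_C 1) (hS.monic _ π.2)
      (monic_X_sub_C 1)
    intro h
    exact hS.notMem (h ▸ π.2)
  have hdisj01 : W ⊓ W' = ⊥ := by
    rw [hW, hW']
    exact (Polynomial.disjoint_ker_aeval_of_isCoprime f hc01).eq_bot
  have hdisjW : W ⊓ Cfsg.Agent.Lib.Helper40.SpImprim.fixS f = ⊥ := by
    rw [hW, hfix]
    exact (Polynomial.disjoint_ker_aeval_of_isCoprime f (hcX π₀)).eq_bot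
  have hdisjW' : W' ⊓ Cfsg.Agent.Lib.Helper40.SpImprim.fixS f = ⊥ := by
    rw [hW', hfix]
    exact (Polynomial.disjoint_ker_aeval_of_isCoprime f (hcX π₁)).eq_bot
  have hdisj2 : (W ⊔ W') ⊓ Cfsg.Agent.Lib.Helper40.SpImprim.fixS f = ⊥ := by
    rw [hW, hW', hfix, Polynomial.sup_ker_aeval_eq_ker_aeval_mul_of_coprime f hc01]
    exact (Polynomial.disjoint_ker_aeval_of_isCoprime f
      (IsCoprime.mul_left (hcX π₀) (hcX π₁))).eq_bot
  -- invariance under `f`
  have hff : ∀ (π : F[X]) (w : SI d → F), aeval f π (f w) = f (aeval f π w) := by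
    intro π w
    have h := aeval_comm80 f f rfl π
    have h' := congrArg (fun φ : Module.End F (SI d → F) => φ w) h
    exact h'.symm
  have hWinv : W.map f ≤ W := by
    rintro _ ⟨w, hw, rfl⟩
    rw [hW] at hw ⊢
    rw [SetLike.mem_coe, LinearMap.mem_ker] at hw
    rw [LinearMap.mem_ker, hff, hw, map_zero]
  have hW'inv : W'.map f ≤ W' := by
    rintro _ ⟨w, hw, rfl⟩
    rw [hW'] at hw ⊢
    rw [SetLike.mem_coe, LinearMap.mem_ker] at hw
    rw [LinearMap.mem_ker, hff, hw, map_zero]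
  -- dimensions
  have hdW : i ∣ Module.finrank F W := by
    have h := Cfsg.Agent.Lib.Helper40.SpImprim.dvd_sub_fix hS hrF f hfr W hWinv
    rw [hdisjW, finrank_bot, Nat.sub_zero] at h
    exact h
  have hdW' : i ∣ Module.finrank F W' := by
    have h := Cfsg.Agent.Lib.Helper40.SpImprim.dvd_sub_fix hS hrF f hfr W' hW'inv
    rw [hdisjW', finrank_bot, Nat.sub_zero] at h
    exact h
  obtain ⟨w, hw0, hwW⟩ := Cfsg.Agent.Lib.Helper40.exists_ne_zero_aeval_eq_zero f π₀.1
    (hS.irred _ π₀.2) (hdvd π₀ ha0)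
  obtain ⟨w', hw'0, hw'W⟩ := Cfsg.Agent.Lib.Helper40.exists_ne_zero_aeval_eq_zero f π₁.1
    (hS.irred _ π₁.2) (hdvd π₁ ha1)
  have hwmem : w ∈ W := by
    rw [hW, LinearMap.mem_ker]
    exact hwW
  have hw'mem : w' ∈ W' := by
    rw [hW', LinearMap.mem_ker]
    exact hw'W
  have hWpos : 0 < Module.finrank F W := by
    rw [Nat.pos_iff_ne_zero]
    intro h
    rw [Submodule.finrank_eq_zero] at h
    rw [h, Submodule.mem_bot] at hwmem
    exact hw0 hwmem
  have hW'pos : 0 < Module.finrank F W' := by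
    rw [Nat.pos_iff_ne_zero]
    intro h
    rw [Submodule.finrank_eq_zero] at h
    rw [h, Submodule.mem_bot] at hw'mem
    exact hw'0 hw'mem
  have hfixdim : Module.finrank F (Cfsg.Agent.Lib.Helper40.SpImprim.fixS f) = 2 * d - i * 2 := by
    rw [hf]
    exact Cfsg.Agent.Lib.Helper40.SpImprim.finrank_fix_of_chi hS hrF M hgr a (2 * d - i * 2) hgχ
  have hVdim : Module.finrank F (SI d → F) = 2 * d := by
    rw [Module.finrank_fintype_fun_eq_card, Fintype.card_sum, Fintype.card_fin]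
    omega
  have hsum : Module.finrank F W + Module.finrank F W' +
      Module.finrank F (Cfsg.Agent.Lib.Helper40.SpImprim.fixS f) ≤ 2 * d := by
    have h1 := Submodule.finrank_sup_add_finrank_inf_eq W W'
    rw [hdisj01, finrank_bot, add_zero] at h1
    have h2 := Submodule.finrank_sup_add_finrank_inf_eq (W ⊔ W')
      (Cfsg.Agent.Lib.Helper40.SpImprim.fixS f)
    rw [hdisj2, finrank_bot, add_zero] at h2
    have h3 := Submodule.finrank_le ((W ⊔ W') ⊔ Cfsg.Agent.Lib.Helper40.SpImprim.fixS f)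
    rw [hVdim] at h3
    omega
  have hWi : Module.finrank F W = i := by
    have h1 := Nat.le_of_dvd hWpos hdW
    have h2 := Nat.le_of_dvd hW'pos hdW'
    rw [hfixdim] at hsum
    omega
  -- the derangement
  refine ⟨(Cfsg.Agent.Lib.Helper13.spToSpGL g).1, (Cfsg.Agent.Lib.Helper13.spToSpGL g).2, ?_, ?_, ?_⟩
  · show g.1 ^ r = 1
    rw [← hM]
    exact hgr
  · intro z hz
    have hz' : M = z • (1 : Matrix (SI d) (SI d) F) := by
      rw [hM]
      exact hz
    have hfz : ∀ v : SI d → F, f v = z • v := by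
      intro v
      rw [hf, Matrix.toLin'_apply, hz', Matrix.smul_mulVec, Matrix.one_mulVec]
    have hev : ∀ v : SI d → F, v ≠ 0 → ∀ π : F[X], aeval f π v = π.eval z • v := by
      intro v hv π
      exact Module.End.aeval_apply_of_hasEigenvector
        ⟨Module.End.mem_eigenspace_iff.mpr (hfz v), hv⟩
    have h1 : π₁.1.eval z = 0 := by
      have h := hev w' hw'0 π₁.1
      rw [hw'W] at h
      exact (smul_eq_zero.mp h.symm).resolve_right hw'0
    have h2 : w ∈ W' := by
      rw [hW', LinearMap.mem_ker, hev w hw0, h1, zero_smul]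
    have h3 : w ∈ W ⊓ W' := ⟨hwmem, h2⟩
    rw [hdisj01, Submodule.mem_bot] at h3
    exact hw0 h3
  · intro a' α hns hα hPM
    have hPM' : M * α = α * M ∨ M * α = -(α * M) := by
      rw [hM]
      exact hPM
    have hcomm : M * α = α * M := by
      rcases hPM' with h | h
      · exact h
      · have h2 : (M * M) * α = α * (M * M) := by
          rw [Matrix.mul_assoc, h, Matrix.mul_neg, ← Matrix.mul_assoc, h, Matrix.neg_mul, neg_neg,
            Matrix.mul_assoc]
        obtain ⟨k, hk⟩ := hr.odd_of_ne_two hr2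
        have h3 : (M * M) ^ (k + 1) = M := by
          rw [← pow_two, ← pow_mul]
          have e : 2 * (k + 1) = r + 1 := by omega
          rw [e, pow_succ, hgr, Matrix.one_mul]
        have h4 : (M * M) ^ (k + 1) * α = α * (M * M) ^ (k + 1) :=
          (Commute.pow_left (show Commute (M * M) α from h2) (k + 1)).eq
        rw [h3] at h4
        exact h4
    have hcommf : Matrix.toLin' α * f = f * Matrix.toLin' α := by
      rw [hf]
      show (Matrix.toLin' α).comp (Matrix.toLin' M) = (Matrix.toLin' M).comp (Matrix.toLin' α)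
      rw [← Matrix.toLin'_mul, ← Matrix.toLin'_mul, hcomm]
    have hinv : ∀ v ∈ W, α *ᵥ v ∈ W := by
      intro v hv
      rw [hW, LinearMap.mem_ker] at hv ⊢
      have h := aeval_comm80 f (Matrix.toLin' α) hcommf π₀.1
      have h' := congrArg (fun φ : Module.End F (SI d → F) => φ v) h
      have h'' : Matrix.toLin' α (aeval f π₀.1 v) = aeval f π₀.1 (Matrix.toLin' α v) := h'
      rw [hv, map_zero, Matrix.toLin'_apply] at h''
      exact h''.symm
    have hev := hEven d a' α hns hα.1 W hinv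
    rw [hWi] at hev
    exact (Nat.not_even_iff_odd.mpr hiodd) hev

end Cfsg.Agent.Lib.Helper80.GUSP
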