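import Mathlib
import Cfsg.Agent.Lib.Helper99.GUSP.Defs2
import Cfsg.Agent.Lib.Helper40.SpImprim
import Cfsg.Agent.Lib.Helper13.SpPrim
import Cfsg.Agent.Lib.Helper80.GUSP.DerA

/-!
# S5976 (team project GUSP), package [TESTB] (helper80)

`i` even, `i ≤ 2d`: a symplectic `x` with `x ^ r = 1` and characteristic polynomial
`(X - 1)^(2d-i) π₀`; `ker π₀(x)` has dimension `i` and is non-degenerate.
-/

set_option autoImplicit false

namespace Cfsg.Agent.Lib.Helper80.GUSP

open Matrix Polynomial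
open Cfsg.Agent.Lib.Helper99.GUSP

universe u

/-- [TESTB] -/
theorem pkgTestB : PkgTestB.{u} := by
  intro F _ _ p _ _ hodd d r hr hr2 hrp hieven hid
  classical
  have : Fact r.Prime := ⟨hr⟩
  have hp : p.Prime := Fact.out
  obtain ⟨i, hi⟩ : ∃ i : ℕ, i = orderOf ((Fintype.card F : ℕ) : ZMod r) := ⟨_, rfl⟩
  rw [← hi] at hieven hid
  obtain ⟨S, dg, hS, hSne, hdg, hdd, hdgeq, -⟩ :=
    Cfsg.Agent.Lib.Helper40.SpImprim.exists_data (F := F) (p := p) (hF := rfl) r hr2 hrp i hi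
  have hdgeq' := hdgeq hieven
  obtain ⟨π₀e, hπ₀e⟩ := hSne
  obtain ⟨π₀, hπ₀⟩ : ∃ π₀ : S, π₀ = ⟨π₀e, hπ₀e⟩ := ⟨_, rfl⟩
  have hi1 : 1 ≤ i := by
    have h := (hS.irred _ π₀.2).natDegree_pos
    rw [hS.deg _ π₀.2] at h
    exact h
  obtain ⟨a, ha⟩ : ∃ a : S → ℕ, a = fun π => if π = π₀ then 1 else 0 := ⟨_, rfl⟩
  have hadg : ∀ π, a (dg π) = a π := by
    intro π
    rw [hdgeq' π]
  have hasum : ∑ π, a π = 1 := by
    rw [ha]
    simp
  have ha0 : a π₀ ≠ 0 := by
    rw [ha]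
    simp
  obtain ⟨g, hgr, hgχ⟩ := Cfsg.Agent.Lib.Helper40.SpImprim.exists_sp_chi p hS hr hr2 dg hdg d a
    hadg (by rw [hasum]; omega)
  rw [hasum] at hgχ
  obtain ⟨M, hM⟩ : ∃ M : Matrix (SI d) (SI d) F, M = g.1 := ⟨_, rfl⟩
  rw [← hM] at hgr hgχ
  have hMsp : ∀ u v : SI d → F, Cfsg.sympForm d F (M *ᵥ u) (M *ᵥ v) = Cfsg.sympForm d F u v := by
    intro u v
    rw [hM]
    exact Cfsg.Agent.Lib.Helper13.sympForm_mulVec_of_mem d g.2 u v
  have hrF : (r : F) ≠ 0 := by
    intro h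
    rw [CharP.cast_eq_zero_iff F p r] at h
    exact hrp ((Nat.prime_dvd_prime_iff_eq hp hr).1 h).symm
  obtain ⟨f, hf⟩ : ∃ f : Module.End F (SI d → F), f = Matrix.toLin' M := ⟨_, rfl⟩
  have hfapp : ∀ v : SI d → F, f v = M *ᵥ v := by
    intro v
    rw [hf, Matrix.toLin'_apply]
  have hfr : f ^ r = 1 := by
    rw [hf, Cfsg.Agent.Lib.Helper40.SpImprim.toLin_pow, hgr, Matrix.toLin'_one]
    rfl
  have hfχ : f.charpoly = (X - C 1) ^ (2 * d - i * 1) * ∏ π : S, π.1 ^ a π := by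
    rw [hf, Matrix.charpoly_toLin', hgχ]
    rfl
  have hdvd : π₀.1 ∣ f.charpoly := by
    rw [hfχ]
    exact Dvd.dvd.mul_left ((dvd_pow_self π₀.1 ha0).trans
      (Finset.dvd_prod_of_mem (fun π : S => π.1 ^ a π) (Finset.mem_univ π₀))) _
  obtain ⟨W, hW⟩ : ∃ W : Submodule F (SI d → F), W = LinearMap.ker (aeval f π₀.1) := ⟨_, rfl⟩
  have hfix : Cfsg.Agent.Lib.Helper40.SpImprim.fixS f =
      LinearMap.ker (aeval f (X - C 1 : F[X])) := by
    unfold Cfsg.Agent.Lib.Helper40.SpImprim.fixS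
    rw [map_sub, aeval_X, aeval_C, map_one]
  have hcX : IsCoprime π₀.1 (X - C 1) := by
    apply coprime_of_ne80 (hS.irred _ π₀.2) (irreducible_X_sub_C 1) (hS.monic _ π₀.2)
      (monic_X_sub_C 1)
    intro h
    exact hS.notMem (h ▸ π₀.2)
  have hdisjW : W ⊓ Cfsg.Agent.Lib.Helper40.SpImprim.fixS f = ⊥ := by
    rw [hW, hfix]
    exact (Polynomial.disjoint_ker_aeval_of_isCoprime f hcX).eq_bot
  have hff : ∀ (π : F[X]) (w : SI d → F), aeval f π (f w) = f (aeval f π w) := by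
    intro π w
    have h := aeval_comm80 f f rfl π
    have h' := congrArg (fun φ : Module.End F (SI d → F) => φ w) h
    exact h'.symm
  have hWinv' : ∀ w ∈ W, f w ∈ W := by
    intro w hw
    rw [hW] at hw ⊢
    rw [LinearMap.mem_ker] at hw
    rw [LinearMap.mem_ker, hff, hw, map_zero]
  have hWinv : W.map f ≤ W := by
    rintro _ ⟨w, hw, rfl⟩
    exact hWinv' w hw
  have hdW : i ∣ Module.finrank F W := by
    have h := Cfsg.Agent.Lib.Helper40.SpImprim.dvd_sub_fix hS hrF f hfr W hWinv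
    rw [hdisjW, finrank_bot, Nat.sub_zero] at h
    exact h
  obtain ⟨w0, hw00, hw0W⟩ := Cfsg.Agent.Lib.Helper40.exists_ne_zero_aeval_eq_zero f π₀.1
    (hS.irred _ π₀.2) hdvd
  have hw0mem : w0 ∈ W := by
    rw [hW, LinearMap.mem_ker]
    exact hw0W
  have hWpos : 0 < Module.finrank F W := by
    rw [Nat.pos_iff_ne_zero]
    intro h
    rw [Submodule.finrank_eq_zero] at h
    rw [h, Submodule.mem_bot] at hw0mem
    exact hw00 hw0mem
  have hfixdim : Module.finrank F (Cfsg.Agent.Lib.Helper40.SpImprim.fixS f) = 2 * d - i * 1 := by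
    rw [hf]
    exact Cfsg.Agent.Lib.Helper40.SpImprim.finrank_fix_of_chi hS hrF M hgr a (2 * d - i * 1) hgχ
  have hVdim : Module.finrank F (SI d → F) = 2 * d := by
    rw [Module.finrank_fintype_fun_eq_card, Fintype.card_sum, Fintype.card_fin]
    omega
  have hsup : Module.finrank F (W ⊔ Cfsg.Agent.Lib.Helper40.SpImprim.fixS f : Submodule F (SI d → F))
      = Module.finrank F W + Module.finrank F (Cfsg.Agent.Lib.Helper40.SpImprim.fixS f) := by
    have h2 := Submodule.finrank_sup_add_finrank_inf_eq W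
      (Cfsg.Agent.Lib.Helper40.SpImprim.fixS f)
    rw [hdisjW, finrank_bot, add_zero] at h2
    exact h2
  have hWi : Module.finrank F W = i := by
    have h1 := Nat.le_of_dvd hWpos hdW
    have h3 := Submodule.finrank_le (W ⊔ Cfsg.Agent.Lib.Helper40.SpImprim.fixS f)
    rw [hVdim, hsup, hfixdim] at h3
    omega
  have htop : W ⊔ Cfsg.Agent.Lib.Helper40.SpImprim.fixS f = ⊤ := by
    apply Submodule.eq_top_of_finrank_eq
    rw [hsup, hWi, hfixdim, hVdim]
    omega
  -- `f - 1` maps `W` onto `W`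
  have hmap : W.map (f - 1) = W := by
    apply Submodule.eq_of_le_of_finrank_eq
    · rintro _ ⟨w, hw, rfl⟩
      rw [LinearMap.sub_apply]
      exact W.sub_mem (hWinv' w hw) hw
    · have h1 := LinearMap.finrank_range_add_finrank_ker ((f - 1).domRestrict W)
      rw [LinearMap.range_domRestrict] at h1
      have h2 : LinearMap.ker ((f - 1).domRestrict W) = ⊥ := by
        rw [LinearMap.ker_eq_bot']
        intro w hw
        have hw' : (f - 1) (w : SI d → F) = 0 := hw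
        have h3 : (w : SI d → F) ∈ W ⊓ Cfsg.Agent.Lib.Helper40.SpImprim.fixS f :=
          ⟨w.2, LinearMap.mem_ker.mpr hw'⟩
        rw [hdisjW, Submodule.mem_bot] at h3
        exact Subtype.ext h3
      rw [h2, finrank_bot, add_zero] at h1
      exact h1
  have horth : ∀ w ∈ W, ∀ u ∈ Cfsg.Agent.Lib.Helper40.SpImprim.fixS f,
      Cfsg.sympForm d F w u = 0 := by
    intro w hw u hu
    rw [← hmap] at hw
    obtain ⟨w1, hw1, rfl⟩ := hw
    have hu' : M *ᵥ u = u := by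
      rw [← hfapp]
      exact (Cfsg.Agent.Lib.Helper40.SpImprim.mem_fixS f u).mp hu
    have e : (f - 1) w1 = M *ᵥ w1 - w1 := by
      rw [LinearMap.sub_apply, hfapp]
      rfl
    rw [e]
    have e2 : Cfsg.sympForm d F (M *ᵥ w1 - w1) u =
        Cfsg.sympForm d F (M *ᵥ w1) u - Cfsg.sympForm d F w1 u := by
      unfold Cfsg.sympForm
      rw [sub_dotProduct]
    rw [e2]
    have e3 := hMsp w1 u
    rw [hu'] at e3
    rw [e3, sub_self]
  have hkerEq : LinearMap.ker (Matrix.toLin' (Polynomial.aeval M π₀.1)) = W := by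
    rw [hW, hf]
    congr 1
    exact (Polynomial.aeval_algHom_apply
      (Matrix.toLinAlgEquiv' : Matrix (SI d) (SI d) F ≃ₐ[F] _).toAlgHom M π₀.1).symm
  refine ⟨(Cfsg.Agent.Lib.Helper13.spToSpGL g).1, π₀.1, (Cfsg.Agent.Lib.Helper13.spToSpGL g).2,
    ?_, ?_, hS.irred _ π₀.2, ?_, ?_, ?_⟩
  · show g.1 ^ r = 1
    rw [← hM]
    exact hgr
  · intro z hz
    have hz' : M = z • (1 : Matrix (SI d) (SI d) F) := by
      rw [hM]
      exact hz
    have hfz : f w0 = z • w0 := by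
      rw [hfapp, hz', Matrix.smul_mulVec, Matrix.one_mulVec]
    have hev : aeval f π₀.1 w0 = π₀.1.eval z • w0 :=
      Module.End.aeval_apply_of_hasEigenvector
        ⟨Module.End.mem_eigenspace_iff.mpr hfz, hw00⟩
    rw [hw0W] at hev
    have h1 : π₀.1.eval z = 0 := (smul_eq_zero.mp hev.symm).resolve_right hw00
    have hd : (X - C z : F[X]) ∣ π₀.1 := dvd_iff_isRoot.mpr h1
    have h2 := eq_of_monic_of_associated (monic_X_sub_C z) (hS.monic _ π₀.2)
      ((irreducible_X_sub_C z).associated_of_dvd (hS.irred _ π₀.2) hd)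
    have h3 := hS.deg _ π₀.2
    rw [← h2, natDegree_X_sub_C] at h3
    rw [← h3] at hieven
    exact absurd hieven (by decide)
  · rw [hS.deg _ π₀.2, hi]
  · show Module.finrank F (LinearMap.ker (Matrix.toLin' (Polynomial.aeval g.1 π₀.1))) =
      π₀.1.natDegree
    rw [← hM, hkerEq, hWi, hS.deg _ π₀.2]
  · show ∀ w ∈ LinearMap.ker (Matrix.toLin' (Polynomial.aeval g.1 π₀.1)),
      (∀ w' ∈ LinearMap.ker (Matrix.toLin' (Polynomial.aeval g.1 π₀.1)),
        Cfsg.sympForm d F w w' = 0) → w = 0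
    rw [← hM, hkerEq]
    intro w hw hall
    by_contra hne
    obtain ⟨v, hv⟩ := Cfsg.Agent.Lib.Helper13.sympForm_exists_ne_zero w hne
    apply hv
    have hvtop : v ∈ W ⊔ Cfsg.Agent.Lib.Helper40.SpImprim.fixS f := by
      rw [htop]
      exact Submodule.mem_top
    obtain ⟨w', hw', u, hu, rfl⟩ := Submodule.mem_sup.mp hvtop
    have e : Cfsg.sympForm d F w (w' + u) = Cfsg.sympForm d F w w' + Cfsg.sympForm d F w u := by
      unfold Cfsg.sympForm
      rw [Matrix.mulVec_add, dotProduct_add]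
    rw [e, hall w' hw', horth w hw u hu, add_zero]

end Cfsg.Agent.Lib.Helper80.GUSP
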